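import Cfsg.Agent.Lib.SRGSearch.Core

/-!
From uniqueness of the neighbourhood systems on `Fin n` to isomorphisms of strongly regular graphs.
-/

set_option autoImplicit false

namespace Cfsg.Agent.Lib.SRGSearch.Transfer

open Cfsg.Agent.Lib.SRGSearch.Core

variable {V : Type*} [Fintype V] {G : SimpleGraph V} [DecidableRel G.Adj] {n k l m : ℕ}

/-- Neighbourhoods of a graph on `Fin n`. -/
def nbhd (G : SimpleGraph V) [DecidableRel G.Adj] (e : V ≃ Fin n) : Fin n → Finset (Fin n) :=
  fun u => Finset.univ.filter fun v => G.Adj (e.symm u) (e.symm v)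

@[simp] theorem mem_nbhd (e : V ≃ Fin n) (u v : Fin n) :
    v ∈ nbhd G e u ↔ G.Adj (e.symm u) (e.symm v) := by
  simp [nbhd]

theorem isSRG_nbhd (hG : G.IsSRGWith n k l m) (e : V ≃ Fin n) : IsSRG n k l m (nbhd G e) := by
  classical
  constructor
  · intro u v hv
    rw [mem_nbhd] at hv ⊢
    exact hv.symm
  · intro u hu
    rw [mem_nbhd] at hu
    exact G.loopless.irrefl _ hu
  · intro u
    have h1 := hG.regular (e.symm u)
    rw [← h1, ← G.card_neighborFinset_eq_degree]
    apply Finset.card_bij (fun v _ => e.symm v)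
    · intro v hv
      rw [mem_nbhd] at hv
      simpa using hv
    · intro a _ b _ hab
      exact e.symm.injective hab
    · intro b hb
      refine ⟨e b, ?_, by simp⟩
      rw [mem_nbhd]
      simpa using hb
  · intro u v huv
    have hcard : (nbhd G e u ∩ nbhd G e v).card =
        Fintype.card (G.commonNeighbors (e.symm u) (e.symm v)) := by
      rw [← Set.toFinset_card]
      apply Finset.card_bij (fun w _ => e.symm w)
      · intro w hw
        rw [Finset.mem_inter, mem_nbhd, mem_nbhd] at hw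
        simp only [Set.mem_toFinset, SimpleGraph.mem_commonNeighbors]
        exact hw
      · intro a _ b _ hab
        exact e.symm.injective hab
      · intro b hb
        refine ⟨e b, ?_, by simp⟩
        rw [Finset.mem_inter, mem_nbhd, mem_nbhd]
        simpa [SimpleGraph.mem_commonNeighbors] using hb
    rw [hcard]
    by_cases h : v ∈ nbhd G e u
    · rw [if_pos h]
      rw [mem_nbhd] at h
      exact hG.of_adj _ _ h
    · rw [if_neg h]
      rw [mem_nbhd] at h
      exact hG.of_not_adj (fun h2 => huv (e.symm.injective h2)) h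

theorem mem_act_iff (e : V ≃ Fin n) (σ : Equiv.Perm (Fin n)) (a b : V) :
    σ (e b) ∈ act σ (nbhd G e) (σ (e a)) ↔ G.Adj a b := by
  show σ (e b) ∈ (nbhd G e (σ.symm (σ (e a)))).image σ ↔ _
  rw [Equiv.symm_apply_apply, Finset.mem_image]
  constructor
  · rintro ⟨w, hw, h2⟩
    rw [mem_nbhd] at hw
    have : w = e b := σ.injective h2
    rw [this] at hw
    simpa using hw
  · intro h
    refine ⟨e b, ?_, rfl⟩
    rw [mem_nbhd]
    simpa using h

/-- Uniqueness on `Fin n` gives isomorphisms. -/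
theorem nonempty_iso_of_forall {Std : Fin n → Finset (Fin n)}
    (h : ∀ N, IsSRG n k l m N → ∃ σ : Equiv.Perm (Fin n), act σ N = Std)
    {W : Type*} [Fintype W] {H : SimpleGraph W} [DecidableRel H.Adj]
    (hG : G.IsSRGWith n k l m) (hH : H.IsSRGWith n k l m) : Nonempty (G ≃g H) := by
  let e1 : V ≃ Fin n := Fintype.equivFinOfCardEq hG.card
  let e2 : W ≃ Fin n := Fintype.equivFinOfCardEq hH.card
  obtain ⟨σ1, h1⟩ := h _ (isSRG_nbhd hG e1)
  obtain ⟨σ2, h2⟩ := h _ (isSRG_nbhd hH e2)
  let f : V ≃ W := (e1.trans σ1).trans (e2.trans σ2).symm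
  refine ⟨⟨f, ?_⟩⟩
  intro a b
  have hf : ∀ x, σ2 (e2 (f x)) = σ1 (e1 x) := by
    intro x
    show (e2.trans σ2) ((e2.trans σ2).symm ((e1.trans σ1) x)) = _
    simp
  have h3 := mem_act_iff (G := H) e2 σ2 (f a) (f b)
  have h4 := mem_act_iff (G := G) e1 σ1 a b
  rw [hf, hf, h2] at h3
  rw [h1] at h4
  rw [← h3, h4]

end Cfsg.Agent.Lib.SRGSearch.Transfer
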